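import Mathlib
import Cfsg.Agent.Lib.Helper23.OHyp.Defs
import Cfsg.Agent.Lib.Helper1.OHyp.Sum
import Cfsg.Agent.Lib.Helper37.OHyp.Geom

/-!
# Isometric involutions: eigenspaces and invariant totally singular subspaces

Generic tools for OTS [INV2-SUF] (S5972): `Q` a nondegenerate quadratic form on `ι → F`
(`2 ≠ 0`), `X` a matrix with `Q (X v) = Q v` and `X * X = 1`.
-/

set_option autoImplicit false
open scoped MatrixGroups
open Matrix

namespace Cfsg.Agent.Lib.Helper1.OTS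

open Cfsg.Agent.Lib.Helper23.OHyp Cfsg.Agent.Lib.Helper1.OHyp Module

universe u

/-- a subspace of any smaller dimension -/
theorem exists_le_finrank_eq {F : Type u} {V : Type*} [Field F] [AddCommGroup V] [Module F V]
    [FiniteDimensional F V] (U : Submodule F V) (a : ℕ) (ha : a ≤ finrank F U) :
    ∃ W : Submodule F V, W ≤ U ∧ finrank F W = a := by
  classical
  have hli : LinearIndependent F
      (fun i : Fin a => ((Module.finBasis F U (Fin.castLE ha i) : U) : V)) := by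
    have h1 := (Module.finBasis F U).linearIndependent.comp (Fin.castLE ha)
      (Fin.castLE_injective ha)
    exact h1.map' U.subtype (Submodule.ker_subtype U)
  refine ⟨Submodule.span F (Set.range
    (fun i : Fin a => ((Module.finBasis F U (Fin.castLE ha i) : U) : V))), ?_, ?_⟩
  · rw [Submodule.span_le]
    rintro _ ⟨i, rfl⟩
    exact (Module.finBasis F U (Fin.castLE ha i)).2
  · rw [finrank_span_eq_card hli, Fintype.card_fin]

section

variable {F : Type u} [Field F] {ι : Type} [Fintype ι] [DecidableEq ι]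

/-- the `(-1)`-eigenspace -/
def negSp (X : Matrix ι ι F) : Submodule F (ι → F) := LinearMap.ker (Matrix.toLin' X + 1)

theorem mem_fixSp_iff (X : Matrix ι ι F) (v : ι → F) : v ∈ fixSp X ↔ X *ᵥ v = v := by
  unfold fixSp
  rw [LinearMap.mem_ker, LinearMap.sub_apply, Matrix.toLin'_apply, Module.End.one_apply,
    sub_eq_zero]

theorem mem_negSp_iff (X : Matrix ι ι F) (v : ι → F) : v ∈ negSp X ↔ X *ᵥ v = -v := by
  unfold negSp
  rw [LinearMap.mem_ker, LinearMap.add_apply, Matrix.toLin'_apply, Module.End.one_apply,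
    add_eq_zero_iff_eq_neg]

theorem polar_isom (Q : (ι → F) → F) (X : Matrix ι ι F) (hX : ∀ v, Q (X *ᵥ v) = Q v)
    (u v : ι → F) : QuadraticMap.polar Q (X *ᵥ u) (X *ᵥ v) = QuadraticMap.polar Q u v := by
  unfold QuadraticMap.polar
  rw [← Matrix.mulVec_add, hX, hX, hX]

/-- the two eigenspaces are orthogonal -/
theorem perp_fix_neg (Q : (ι → F) → F) (hQ : Cfsg.Geo.IsNondegenerateQuadraticForm Q)
    (h2 : (2 : F) ≠ 0) (X : Matrix ι ι F) (hX : ∀ v, Q (X *ᵥ v) = Q v) :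
    Perp Q (fixSp X) (negSp X) := by
  intro u hu w hw
  rw [mem_fixSp_iff] at hu
  rw [mem_negSp_iff] at hw
  have h1 := polar_isom Q X hX u w
  rw [hu, hw] at h1
  have h3 : polB Q hQ u (-w) = - polB Q hQ u w := by rw [map_neg]
  rw [polB_apply, polB_apply] at h3
  rw [h3] at h1
  have h4 : 2 * QuadraticMap.polar Q u w = 0 := by linear_combination -h1
  exact (mul_eq_zero.mp h4).resolve_left h2

theorem half_add_mem (_h2 : (2 : F) ≠ 0) (X : Matrix ι ι F) (hXX : X * X = 1) (y : ι → F) :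
    (2 : F)⁻¹ • (y + X *ᵥ y) ∈ fixSp X := by
  rw [mem_fixSp_iff, Matrix.mulVec_smul, Matrix.mulVec_add, Matrix.mulVec_mulVec, hXX,
    Matrix.one_mulVec, add_comm]

theorem half_sub_mem (_h2 : (2 : F) ≠ 0) (X : Matrix ι ι F) (hXX : X * X = 1) (y : ι → F) :
    (2 : F)⁻¹ • (y - X *ᵥ y) ∈ negSp X := by
  rw [mem_negSp_iff, Matrix.mulVec_smul, Matrix.mulVec_sub, Matrix.mulVec_mulVec, hXX,
    Matrix.one_mulVec, ← smul_neg, neg_sub]

theorem half_decomp (h2 : (2 : F) ≠ 0) (X : Matrix ι ι F) (y : ι → F) :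
    y = (2 : F)⁻¹ • (y + X *ᵥ y) + (2 : F)⁻¹ • (y - X *ᵥ y) := by
  rw [← smul_add]
  have e : y + X *ᵥ y + (y - X *ᵥ y) = (2 : F) • y := by
    rw [two_smul]
    abel
  rw [e, smul_smul, inv_mul_cancel₀ h2, one_smul]

theorem isCompl_fix_neg (h2 : (2 : F) ≠ 0) (X : Matrix ι ι F) (hXX : X * X = 1) :
    IsCompl (fixSp X) (negSp X) := by
  constructor
  · rw [Submodule.disjoint_def]
    intro v hv hv'
    rw [mem_fixSp_iff] at hv
    rw [mem_negSp_iff] at hv'
    have h1 : (2 : F) • v = 0 := by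
      rw [two_smul]
      nth_rewrite 1 [← hv]
      rw [hv', neg_add_cancel]
    rcases smul_eq_zero.mp h1 with h | h
    · exact absurd h h2
    · exact h
  · rw [codisjoint_iff, eq_top_iff]
    intro y _
    rw [half_decomp h2 X y]
    exact Submodule.add_mem_sup (half_add_mem h2 X hXX y) (half_sub_mem h2 X hXX y)

theorem nd_fixSp (Q : (ι → F) → F) (hQ : Cfsg.Geo.IsNondegenerateQuadraticForm Q)
    (h2 : (2 : F) ≠ 0) (X : Matrix ι ι F) (hX : ∀ v, Q (X *ᵥ v) = Q v) (hXX : X * X = 1) :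
    Nd Q (fixSp X) := by
  have hperp := perp_fix_neg Q hQ h2 X hX
  have key : ∀ w ∈ fixSp X, w ≠ 0 → ∃ z ∈ fixSp X, QuadraticMap.polar Q z w ≠ 0 := by
    intro w hw hw0
    obtain ⟨⟨y, hy⟩, -⟩ := hQ.nondegenerate w hw0
    refine ⟨_, half_add_mem h2 X hXX y, ?_⟩
    intro h0
    apply hy
    have h1 : polB Q hQ y w = polB Q hQ ((2 : F)⁻¹ • (y + X *ᵥ y)) w +
        polB Q hQ ((2 : F)⁻¹ • (y - X *ᵥ y)) w := by
      rw [← LinearMap.add_apply, ← map_add, ← half_decomp h2 X y]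
    rw [polB_apply, polB_apply, polB_apply, h0, zero_add] at h1
    rw [h1, QuadraticMap.polar_comm]
    exact hperp w hw _ (half_sub_mem h2 X hXX y)
  intro w hw hw0
  obtain ⟨z, hz, hzw⟩ := key w hw hw0
  exact ⟨⟨z, hz, hzw⟩, ⟨z, hz, by rw [QuadraticMap.polar_comm]; exact hzw⟩⟩

theorem nd_negSp (Q : (ι → F) → F) (hQ : Cfsg.Geo.IsNondegenerateQuadraticForm Q)
    (h2 : (2 : F) ≠ 0) (X : Matrix ι ι F) (hX : ∀ v, Q (X *ᵥ v) = Q v) (hXX : X * X = 1) :
    Nd Q (negSp X) := by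
  have hperp := perp_fix_neg Q hQ h2 X hX
  have key : ∀ w ∈ negSp X, w ≠ 0 → ∃ z ∈ negSp X, QuadraticMap.polar Q z w ≠ 0 := by
    intro w hw hw0
    obtain ⟨⟨y, hy⟩, -⟩ := hQ.nondegenerate w hw0
    refine ⟨_, half_sub_mem h2 X hXX y, ?_⟩
    intro h0
    apply hy
    have h1 : polB Q hQ y w = polB Q hQ ((2 : F)⁻¹ • (y + X *ᵥ y)) w +
        polB Q hQ ((2 : F)⁻¹ • (y - X *ᵥ y)) w := by
      rw [← LinearMap.add_apply, ← map_add, ← half_decomp h2 X y]
    rw [polB_apply, polB_apply, polB_apply, h0, add_zero,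
      hperp _ (half_add_mem h2 X hXX y) w hw] at h1
    exact h1
  intro w hw hw0
  obtain ⟨z, hz, hzw⟩ := key w hw hw0
  exact ⟨⟨z, hz, hzw⟩, ⟨z, hz, by rw [QuadraticMap.polar_comm]; exact hzw⟩⟩

/-- a nondegenerate subspace contains a totally singular subspace of almost half its dimension -/
theorem exists_ts_of_nd [Fintype F] (Q : (ι → F) → F)
    (hQ : Cfsg.Geo.IsNondegenerateQuadraticForm Q) (h2 : (2 : F) ≠ 0)
    (W : Submodule F (ι → F)) (hW : Nd Q W) :
    ∃ U : Submodule F (ι → F), U ≤ W ∧ (∀ u ∈ U, Q u = 0) ∧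
      finrank F W ≤ 2 * finrank F U + 2 := by
  by_cases h0 : finrank F W = 0
  · refine ⟨⊥, bot_le, ?_, by omega⟩
    intro u hu
    rw [Submodule.mem_bot] at hu
    rw [hu]
    have h := hQ.smul 0 0
    rw [zero_smul] at h
    rw [h]
    ring
  · obtain ⟨W₀, hW₀, -, hdim, hplus⟩ := Cfsg.Agent.Lib.Helper37.OHyp.pkgGeom F ι Q hQ h2 W hW
      (2 * ((finrank F W - 1) / 2)) True (even_two_mul _) (by omega) (fun _ => trivial)
    obtain ⟨U, hU, hts, hUdim⟩ := hplus.mpr trivial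
    exact ⟨U, hU.trans hW₀, hts, by omega⟩

/-- assembling an invariant totally singular subspace from the two eigenspaces -/
theorem exists_inv_ts (Q : (ι → F) → F) (hQ : Cfsg.Geo.IsNondegenerateQuadraticForm Q)
    (h2 : (2 : F) ≠ 0) (X : Matrix ι ι F) (hX : ∀ v, Q (X *ᵥ v) = Q v) (hXX : X * X = 1)
    (Up Um : Submodule F (ι → F)) (hUp : Up ≤ fixSp X) (hUm : Um ≤ negSp X)
    (hp : ∀ u ∈ Up, Q u = 0) (hm : ∀ u ∈ Um, Q u = 0) (m : ℕ)
    (hmle : m ≤ finrank F Up + finrank F Um) :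
    ∃ W : Submodule F (ι → F), finrank F W = m ∧ (∀ w ∈ W, Q w = 0) ∧
      W.map (Matrix.toLin' X) ≤ W := by
  obtain ⟨Wp, hWp, hWpd⟩ := exists_le_finrank_eq Up (min m (finrank F Up)) (min_le_right _ _)
  obtain ⟨Wm, hWm, hWmd⟩ := exists_le_finrank_eq Um (m - min m (finrank F Up)) (by omega)
  have hperp := perp_fix_neg Q hQ h2 X hX
  have hdisj : Wp ⊓ Wm = ⊥ := by
    have h1 := (isCompl_fix_neg h2 X hXX).disjoint
    exact disjoint_iff.mp (h1.mono (hWp.trans hUp) (hWm.trans hUm))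
  refine ⟨Wp ⊔ Wm, ?_, ?_, ?_⟩
  · have h := Submodule.finrank_sup_add_finrank_inf_eq Wp Wm
    rw [hdisj, finrank_bot] at h
    omega
  · intro w hw
    obtain ⟨u, hu, v, hv, rfl⟩ := Submodule.mem_sup.mp hw
    have e : Q (u + v) = Q u + Q v + QuadraticMap.polar Q u v := by
      unfold QuadraticMap.polar
      ring
    rw [e, hp u (hWp hu), hm v (hWm hv), hperp u (hUp (hWp hu)) v (hUm (hWm hv))]
    ring
  · rintro _ ⟨w, hw, rfl⟩
    obtain ⟨u, hu, v, hv, rfl⟩ := Submodule.mem_sup.mp hw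
    rw [Matrix.toLin'_apply, Matrix.mulVec_add, (mem_fixSp_iff X u).mp (hUp (hWp hu)),
      (mem_negSp_iff X v).mp (hUm (hWm hv))]
    exact Submodule.add_mem_sup hu (Wm.neg_mem hv)

end

end Cfsg.Agent.Lib.Helper1.OTS
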